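import Cfsg.Agent.H0.VMcLp3.D
set_option maxRecDepth 100000
set_option Elab.async false
set_option linter.unusedSectionVars false
namespace H0.VMcLp3
open H0 BN 
theorem c145 : pairsW R 3 3 ((E.drop 202).take 6) = true := by decide +kernel
theorem c146 : pairsW R 6 3 ((E.drop 202).take 6) = true := by decide +kernel
theorem c147 : pairsW R 9 3 ((E.drop 202).take 6) = true := by decide +kernel
theorem c148 : pairsW R 12 3 ((E.drop 202).take 6) = true := by decide +kernel
theorem c149 : pairsW R 15 2 ((E.drop 202).take 6) = true := by decide +kernel
theorem c150 : pairsW R 0 3 ((E.drop 208).take 6) = true := by decide +kernel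
theorem c151 : pairsW R 3 3 ((E.drop 208).take 6) = true := by decide +kernel
theorem c152 : pairsW R 6 3 ((E.drop 208).take 6) = true := by decide +kernel
theorem c153 : pairsW R 9 3 ((E.drop 208).take 6) = true := by decide +kernel
theorem c154 : pairsW R 12 3 ((E.drop 208).take 6) = true := by decide +kernel
theorem c155 : pairsW R 15 2 ((E.drop 208).take 6) = true := by decide +kernel
theorem c156 : pairsW R 0 3 ((E.drop 214).take 13) = true := by decide +kernel
theorem c157 : pairsW R 3 3 ((E.drop 214).take 13) = true := by decide +kernel
theorem c158 : pairsW R 6 3 ((E.drop 214).take 13) = true := by decide +kernel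
theorem c159 : pairsW R 9 3 ((E.drop 214).take 13) = true := by decide +kernel
theorem c160 : pairsW R 12 3 ((E.drop 214).take 13) = true := by decide +kernel
theorem c161 : pairsW R 15 2 ((E.drop 214).take 13) = true := by decide +kernel
theorem c162 : pairsW R 0 3 ((E.drop 227).take 6) = true := by decide +kernel
theorem c163 : pairsW R 3 3 ((E.drop 227).take 6) = true := by decide +kernel
theorem c164 : pairsW R 6 3 ((E.drop 227).take 6) = true := by decide +kernel
theorem c165 : pairsW R 9 3 ((E.drop 227).take 6) = true := by decide +kernel
theorem c166 : pairsW R 12 3 ((E.drop 227).take 6) = true := by decide +kernel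
theorem c167 : pairsW R 15 2 ((E.drop 227).take 6) = true := by decide +kernel
theorem c168 : eqW R 0 3 [15, 15, 15] [] = true := by decide +kernel
theorem c169 : eqW R 3 3 [15, 15, 15] [] = true := by decide +kernel
theorem c170 : eqW R 6 3 [15, 15, 15] [] = true := by decide +kernel
theorem c171 : eqW R 9 3 [15, 15, 15] [] = true := by decide +kernel
theorem c172 : eqW R 12 3 [15, 15, 15] [] = true := by decide +kernel
theorem c173 : eqW R 15 2 [15, 15, 15] [] = true := by decide +kernel
theorem c174 : mapsP R [15] [0] [2] = true := by decide +kernel
end H0.VMcLp3
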